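import Cfsg.Agent.Lib.Helper17.ReeMult.Defs

set_option autoImplicit false

/-!
# (ARITH) the arithmetic of the Schur multiplier of the small Ree groups
-/

namespace Cfsg.Agent.Lib.Helper17.ReeMult

theorem pkgArith : PkgArith := by
  intro m n hm H1 H2 H3 H4 H5 H6
  obtain ⟨q, hq⟩ : ∃ q, q = 3 ^ (2 * m + 1) := ⟨_, rfl⟩
  obtain ⟨r, hr⟩ : ∃ r, r = 3 ^ (m + 1) := ⟨_, rfl⟩
  rw [← hq] at H1 H2 H3 H4 H5 H6
  rw [← hr] at H2 H3
  have hrr : r * r = 3 * q := by
    rw [hr, hq, ← pow_add, ← pow_succ']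
    congr 1
    omega
  have hq3 : 3 ∣ q := by
    rw [hq]
    exact dvd_pow_self 3 (by omega)
  have hq8 : q % 8 = 3 := by
    rw [hq, pow_succ, pow_mul, Nat.mul_mod, Nat.pow_mod]
    norm_num
  have hr2 : r % 2 = 1 := by
    rw [hr, Nat.pow_mod]
    norm_num
  have hr9 : 9 ≤ r := by
    rw [hr]
    calc 9 = 3 ^ 2 := by norm_num
      _ ≤ 3 ^ (m + 1) := Nat.pow_le_pow_right (by norm_num) (by omega)
  have hrq : r ≤ q := by
    rw [hr, hq]
    exact Nat.pow_le_pow_right (by norm_num) (by omega)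
  obtain ⟨d, hd⟩ : ∃ d, d + 1 = q := ⟨q - 1, by omega⟩
  obtain ⟨b, hb⟩ : ∃ b, b + r = q + 1 := ⟨q + 1 - r, by omega⟩
  obtain ⟨a, ha⟩ : ∃ a, a = q + r + 1 := ⟨_, rfl⟩
  obtain ⟨c, hc⟩ : ∃ c, 4 * c = q + 1 := ⟨(q + 1) / 4, by omega⟩
  obtain ⟨d', hd'⟩ : ∃ d', 2 * d' = d := ⟨d / 2, by omega⟩
  obtain ⟨r', hr'⟩ : ∃ r', r = r' + 2 := ⟨r - 2, by omega⟩
  have e1 : q - 1 = d := by omega
  have e2 : q - r + 1 = b := by omega
  have e3 : (q + 1) / 4 = c := by omega
  rw [e1] at H1 H2 H3 H4 H5 H6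
  rw [← ha] at H2
  rw [e2] at H3
  rw [e3] at H4
  have hab : a * b + q = q * q + 1 := by
    have ha' : (a : ℤ) = q + r + 1 := by exact_mod_cast ha
    have hb' : (b : ℤ) + r = q + 1 := by exact_mod_cast hb
    have hrr' : (r : ℤ) * r = 3 * q := by exact_mod_cast hrr
    have : (a : ℤ) * b + q = q * q + 1 := by
      linear_combination (b : ℤ) * ha' + ((q : ℤ) + r + 1) * hb' - hrr'
    exact_mod_cast this
  have hcube : q ^ 3 + 1 = (q + 1) * (a * b) := by
    have hab' : (a : ℤ) * b + q = q * q + 1 := by exact_mod_cast hab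
    have : (q : ℤ) ^ 3 + 1 = (q + 1) * (a * b) := by
      linear_combination (-(q : ℤ) - 1) * hab'
    exact_mod_cast this
  have key3 : r' * (r' + 4) + 1 = 3 * d := by
    have h := hrr
    rw [hr', ← hd] at h
    nlinarith [h]
  -- the six divisibilities
  have A1 : n ∣ q ^ 3 * (q ^ 3 + 1) := H1 _ (by ring)
  have A2 : n ∣ q ^ 3 * (q + 1) * b * d := H2 _ (by rw [hcube]; ring)
  have A3 : n ∣ q ^ 3 * (q + 1) * a * d := H3 _ (by rw [hcube]; ring)
  have A4 : n ∣ 4 * (q ^ 3 * a * b * d) := H4 _ (by rw [hcube, ← hc]; ring)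
  have A5 : n ∣ q ^ 3 * a * b * c * d' := H5 _ (by rw [hcube, ← hc, ← hd']; ring)
  have A6 : n ∣ (q ^ 3 + 1) * d * d := H6 ((q ^ 3 + 1) * d) (by ring)
  by_contra hn
  obtain ⟨p, hp, hpn⟩ := Nat.exists_prime_and_dvd hn
  have hpq : ¬ p ∣ q := by
    intro h
    have hp3 : p = 3 := by
      rw [hq] at h
      exact (Nat.prime_dvd_prime_iff_eq hp Nat.prime_three).mp (hp.dvd_of_dvd_pow h)
    subst hp3
    rcases (Nat.Prime.dvd_mul hp).mp (dvd_trans hpn A6) with h' | h'
    · rcases (Nat.Prime.dvd_mul hp).mp h' with h'' | h''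
      · have h3 : 3 ∣ q ^ 3 := dvd_pow h (by norm_num)
        have h4 := (Nat.dvd_add_right h3).mp h''
        omega
      · omega
    · omega
  have hpQ : ¬ p ∣ q ^ 3 := fun h => hpq (hp.dvd_of_dvd_pow h)
  have hp3 : p ≠ 3 := by
    rintro rfl
    exact hpq hq3
  have hpr : ¬ p ∣ r := by
    intro h
    rw [hr] at h
    exact hp3 ((Nat.prime_dvd_prime_iff_eq hp Nat.prime_three).mp (hp.dvd_of_dvd_pow h))
  have x_a_q1 : p ∣ a → p ∣ q + 1 → False := by
    intro h1 h2
    apply hpr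
    have e : a = (q + 1) + r := by omega
    rw [e] at h1
    exact (Nat.dvd_add_right h2).mp h1
  have x_b_q1 : p ∣ b → p ∣ q + 1 → False := by
    intro h1 h2
    apply hpr
    rw [← hb] at h2
    exact (Nat.dvd_add_right h1).mp h2
  have x_a_b : p ∣ a → p ∣ b → False := by
    intro h1 h2
    have e : a = b + 2 * r := by omega
    rw [e] at h1
    have h3 := (Nat.dvd_add_right h2).mp h1
    rcases (Nat.Prime.dvd_mul hp).mp h3 with h4 | h4
    · have hp2 : p = 2 := (Nat.prime_dvd_prime_iff_eq hp Nat.prime_two).mp h4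
      subst hp2
      omega
    · exact hpr h4
  have x_a_d : p ∣ a → p ∣ d → False := by
    intro h1 h2
    have e : a = d + (r' + 4) := by omega
    rw [e] at h1
    have h3 : p ∣ r' + 4 := (Nat.dvd_add_right h2).mp h1
    have h4 : p ∣ r' * (r' + 4) := Dvd.dvd.mul_left h3 _
    have h5 : p ∣ 3 * d := Dvd.dvd.mul_left h2 _
    rw [← key3] at h5
    have h6 := (Nat.dvd_add_right h4).mp h5
    exact hp.one_lt.ne' (Nat.dvd_one.mp h6)
  have x_b_d : p ∣ b → p ∣ d → False := by
    intro h1 h2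
    have e : d = b + r' := by omega
    have h3 : p ∣ r' := by
      have h := h2
      rw [e] at h
      exact (Nat.dvd_add_right h1).mp h
    have h4 : p ∣ r' * (r' + 4) := Dvd.dvd.mul_right h3 _
    have h5 : p ∣ 3 * d := Dvd.dvd.mul_left h2 _
    rw [← key3] at h5
    have h6 := (Nat.dvd_add_right h4).mp h5
    exact hp.one_lt.ne' (Nat.dvd_one.mp h6)
  have B1 : p ∣ q ^ 3 + 1 := by
    rcases (Nat.Prime.dvd_mul hp).mp (dvd_trans hpn A1) with h | h
    · exact absurd h hpQ
    · exact h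
  rw [hcube] at B1
  rcases (Nat.Prime.dvd_mul hp).mp B1 with h | h
  · -- `p ∣ q + 1`
    have hp2 : p = 2 := by
      rcases (Nat.Prime.dvd_mul hp).mp (dvd_trans hpn A4) with h' | h'
      · have h4 : p ∣ 2 ^ 2 := by
          norm_num
          exact h'
        exact (Nat.prime_dvd_prime_iff_eq hp Nat.prime_two).mp (hp.dvd_of_dvd_pow h4)
      · rcases (Nat.Prime.dvd_mul hp).mp h' with h' | h'
        · rcases (Nat.Prime.dvd_mul hp).mp h' with h' | h'
          · rcases (Nat.Prime.dvd_mul hp).mp h' with h' | h'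
            · exact absurd h' hpQ
            · exact (x_a_q1 h' h).elim
          · exact (x_b_q1 h' h).elim
        · have e : q + 1 = d + 2 := by omega
          rw [e] at h
          exact (Nat.prime_dvd_prime_iff_eq hp Nat.prime_two).mp ((Nat.dvd_add_right h').mp h)
    subst hp2
    rcases (Nat.Prime.dvd_mul hp).mp (dvd_trans hpn A5) with h' | h'
    · rcases (Nat.Prime.dvd_mul hp).mp h' with h' | h'
      · rcases (Nat.Prime.dvd_mul hp).mp h' with h' | h'
        · rcases (Nat.Prime.dvd_mul hp).mp h' with h' | h'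
          · exact hpQ h'
          · omega
        · omega
      · omega
    · omega
  · rcases (Nat.Prime.dvd_mul hp).mp h with h | h
    · -- `p ∣ a`
      rcases (Nat.Prime.dvd_mul hp).mp (dvd_trans hpn A2) with h' | h'
      · rcases (Nat.Prime.dvd_mul hp).mp h' with h' | h'
        · rcases (Nat.Prime.dvd_mul hp).mp h' with h' | h'
          · exact hpQ h'
          · exact x_a_q1 h h'
        · exact x_a_b h h'
      · exact x_a_d h h'
    · -- `p ∣ b`
      rcases (Nat.Prime.dvd_mul hp).mp (dvd_trans hpn A3) with h' | h'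
      · rcases (Nat.Prime.dvd_mul hp).mp h' with h' | h'
        · rcases (Nat.Prime.dvd_mul hp).mp h' with h' | h'
          · exact hpQ h'
          · exact x_b_q1 h h'
        · exact x_a_b h' h
      · exact x_b_d h h'

end Cfsg.Agent.Lib.Helper17.ReeMult
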