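import Cfsg.Agent.Lib.Helper17.ReeMult.Sq
import Cfsg.Agent.Lib.Helper59.SzMultB

set_option autoImplicit false

/-!
# (CA) the preimages of the two lower terms of the Sylow `3`-subgroup

In a central extension of a group containing the Sylow `3`-subgroup `{T t a b}` of a small Ree
group and its torus: the preimage of `{T 0 a b}` is commutative and the preimage of `{T 0 0 b}`
commutes with the preimage of `{T t a b}`.
-/

universe u v w

namespace Cfsg.Agent.Lib.Helper17.ReeMult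

open scoped commutatorElement

open Cfsg.Agent.Lib.Helper59 (pairing_eq_one_of_scale_inv pairing_eq_one_of_twisted_inv
  comm_eq_of_map_eq comm_mem_center_of_map_comm comm_mul_left_of_comm comm_mul_right_of_comm
  comm_mul_cancel_left comm_mul_cancel_right conj_comm)

theorem exp_arith (θ N e s e2 : ℕ) (hN : N + 1 = 3 * θ * θ) (he : e + 3 = 6 * θ)
    (hs : s + 2 = 3 * θ) (he2 : e2 + 3 = 3 * θ) :
    e * (2 * θ + 1) = 4 * N + 1 ∧ e * (θ + 1) = 2 * N + (s + 1) ∧ e2 * (θ + 1) + 2 = N := by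
  have hN' : (N : ℤ) + 1 = 3 * θ * θ := by exact_mod_cast hN
  have he' : (e : ℤ) + 3 = 6 * θ := by exact_mod_cast he
  have hs' : (s : ℤ) + 2 = 3 * θ := by exact_mod_cast hs
  have he2' : (e2 : ℤ) + 3 = 3 * θ := by exact_mod_cast he2
  refine ⟨?_, ?_, ?_⟩
  · have : (e : ℤ) * (2 * θ + 1) = 4 * N + 1 := by
      linear_combination (2 * (θ : ℤ) + 1) * he' - 4 * hN'
    exact_mod_cast this
  · have : (e : ℤ) * (θ + 1) = 2 * N + (s + 1) := by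
      linear_combination ((θ : ℤ) + 1) * he' - 2 * hN' - hs'
    exact_mod_cast this
  · have : (e2 : ℤ) * (θ + 1) + 2 = N := by
      linear_combination ((θ : ℤ) + 1) * he2' - hN'
    exact_mod_cast this

theorem two_ne_zero_of_card {F : Type*} [Field F] [Fintype F] {k : ℕ}
    (hF : Fintype.card F = 3 ^ k) : (2 : F) ≠ 0 := by
  intro h
  have h1 : addOrderOf (1 : F) ∣ 2 := by
    apply addOrderOf_dvd_of_nsmul_eq_zero
    rw [two_nsmul, one_add_one_eq_two, h]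
  have h3 : addOrderOf (1 : F) ∣ Fintype.card F := addOrderOf_dvd_card
  rcases (Nat.dvd_prime Nat.prime_two).mp h1 with h4 | h4
  · rw [AddMonoid.addOrderOf_eq_one_iff] at h4
    exact one_ne_zero h4
  · rw [h4, hF] at h3
    have := Nat.Prime.dvd_of_dvd_pow Nat.prime_two h3
    omega

theorem pkgCA : PkgCA.{u, v, w} := by
  intro F _ _ G _ Y _ m T Hh τ hm hF D hτ hc
  classical
  have hθ0 : (3 : ℕ) ^ m ≠ 0 := pow_ne_zero _ (by norm_num)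
  have h0θ : (0 : F) ^ 3 ^ m = 0 := zero_pow hθ0
  have hθ3 : 3 ≤ 3 ^ m := by
    calc 3 = 3 ^ 1 := by norm_num
      _ ≤ 3 ^ m := Nat.pow_le_pow_right (by norm_num) hm
  have hq : 3 ^ (2 * m + 1) = 3 * 3 ^ m * 3 ^ m := by
    rw [pow_succ, pow_mul']
    ring
  rw [hq] at hF
  have hF4 : 4 < Fintype.card F := by
    rw [hF]
    nlinarith
  have hF27 : 27 ≤ Fintype.card F := by
    rw [hF]
    nlinarith
  have h2ne : (2 : F) ≠ 0 := two_ne_zero_of_card (k := 2 * m + 1) (by rw [hF, hq])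
  obtain ⟨N, hN⟩ : ∃ N, N + 1 = 3 * 3 ^ m * 3 ^ m := ⟨3 * 3 ^ m * 3 ^ m - 1, by
    have : 0 < 3 * 3 ^ m * 3 ^ m := by positivity
    omega⟩
  obtain ⟨e, he⟩ : ∃ e, e + 3 = 6 * 3 ^ m := ⟨6 * 3 ^ m - 3, by omega⟩
  obtain ⟨s, hs⟩ : ∃ s, s + 2 = 3 * 3 ^ m := ⟨3 * 3 ^ m - 2, by omega⟩
  obtain ⟨e2, he2⟩ : ∃ e2, e2 + 3 = 3 * 3 ^ m := ⟨3 * 3 ^ m - 3, by omega⟩
  obtain ⟨hE1, hE2, hE3⟩ := exp_arith (3 ^ m) N e s e2 hN he hs he2
  have hκN : ∀ κ : F, κ ≠ 0 → κ ^ N = 1 := by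
    intro κ hκ
    have h := FiniteField.pow_card_sub_one_eq_one κ hκ
    rw [hF, ← hN, Nat.add_sub_cancel] at h
    exact h
  have hFs : 2 * s + 4 < Fintype.card F := by
    rw [hF]
    nlinarith
  have hFt : 2 * (2 * 3 ^ m) + 4 < Fintype.card F := by
    rw [hF]
    nlinarith
  -- units
  have hunit1 : ∀ κ : F, κ ≠ 0 → ∃ μ : Fˣ, (μ : F) ^ (2 * 3 ^ m + 1) = κ ∧
      (μ : F) ^ (3 ^ m + 1) = κ ^ (s + 1) := by
    intro κ hκ
    refine ⟨Units.mk0 κ hκ ^ e, ?_, ?_⟩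
    · rw [Units.val_pow_eq_pow_val, Units.val_mk0, ← pow_mul, hE1, pow_succ, pow_mul', hκN κ hκ,
        one_pow, one_mul]
    · rw [Units.val_pow_eq_pow_val, Units.val_mk0, ← pow_mul, hE2, pow_add, pow_mul', hκN κ hκ,
        one_pow, one_mul]
  have hunit2 : ∀ κ : F, κ ≠ 0 → ∃ μ : Fˣ, (μ : F) ^ (3 ^ m + 1) = κ ^ 2 := by
    intro κ hκ
    refine ⟨(Units.mk0 κ hκ)⁻¹ ^ e2, ?_⟩
    rw [Units.val_pow_eq_pow_val, Units.val_inv_eq_inv_val, Units.val_mk0, ← pow_mul]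
    have h1 : κ⁻¹ ^ (e2 * (3 ^ m + 1)) * κ⁻¹ ^ 2 = 1 := by
      rw [← pow_add, hE3, inv_pow, hκN κ hκ, inv_one]
    rw [eq_inv_of_mul_eq_one_left h1, inv_pow, inv_inv]
  -- the multiplication rule
  have hmul0 : ∀ a b t' a' b', T 0 a b * T t' a' b' = T t' (a + a') (b + b') := by
    intro a b t' a' b'
    rw [D.mul, h0θ]
    congr 1 <;> ring
  have hmulr0 : ∀ t a b a' b', T t a b * T 0 a' b' =
      T t (a + a') (b + 2 * t ^ 3 ^ m * a' + b') := by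
    intro t a b a' b'
    rw [D.mul]
    congr 1 <;> ring
  have hT3 : ∀ b b', T 0 0 b * T 0 0 b' = T 0 0 (b + b') := by
    intro b b'
    rw [hmul0, add_zero]
  have hT2 : ∀ a a', T 0 a 0 * T 0 a' 0 = T 0 (a + a') 0 := by
    intro a a'
    rw [hmul0, add_zero]
  have hT23 : ∀ a b, T 0 a 0 * T 0 0 b = T 0 a b := by
    intro a b
    rw [hmul0, add_zero, zero_add]
  have hZ3c : ∀ b t a b', T 0 0 b * T t a b' = T t a b' * T 0 0 b := by
    intro b t a b'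
    rw [hmul0, hmulr0]
    congr 1 <;> ring
  have hZ2c : ∀ a b a' b', T 0 a b * T 0 a' b' = T 0 a' b' * T 0 a b := by
    intro a b a' b'
    rw [hmul0, hmul0]
    congr 1 <;> ring
  -- lifts
  choose tx htx using fun t => hτ (T t 0 0)
  choose ty hty using fun a => hτ (T 0 a 0)
  choose tz htz using fun b => hτ (T 0 0 b)
  choose gH hgH using fun ν => hτ (Hh ν)
  have hconj : ∀ (ν : Fˣ) (x : Y) (t a b : F), τ x = T t a b →
      τ (gH ν * x * (gH ν)⁻¹) =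
        T ((ν : F) * t) ((ν : F) ^ (3 ^ m + 1) * a) ((ν : F) ^ (2 * 3 ^ m + 1) * b) := by
    intro ν x t a b hx
    rw [map_mul, map_mul, map_inv, hgH, hx, D.conj]
  -- commutators with lifts of `Z₃` are central
  have hcenU3 : ∀ (x : Y) (t a b e : F), τ x = T t a b → ⁅x, tz e⁆ ∈ Subgroup.center Y :=
    fun x t a b e hx =>
      comm_mem_center_of_map_comm τ hc (by rw [htz, hx]; exact (hZ3c e t a b).symm)
  -- 1. the pairing on `Z₃ × Z₃`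
  have hβ3 : ∀ b e, (⟨⁅tz b, tz e⁆, hcenU3 _ 0 0 b e (htz b)⟩ : Subgroup.center Y) = 1 := by
    apply pairing_eq_one_of_scale_inv hF4
      (fun b e => (⟨⁅tz b, tz e⁆, hcenU3 _ 0 0 b e (htz b)⟩ : Subgroup.center Y))
    · intro u u' v
      apply Subtype.ext
      show ⁅tz (u + u'), tz v⁆ = ⁅tz u, tz v⁆ * ⁅tz u', tz v⁆
      have e1 : ⁅tz (u + u'), tz v⁆ = ⁅tz u * tz u', tz v⁆ :=
        comm_eq_of_map_eq τ hc (by rw [map_mul, htz, htz, htz, hT3]) rfl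
      rw [e1, comm_mul_left_of_comm
        (Subgroup.mem_center_iff.mp (hcenU3 _ 0 0 u' v (htz u')) _)]
      exact (Subgroup.mem_center_iff.mp (hcenU3 _ 0 0 u' v (htz u')) _).symm
    · intro u v v'
      apply Subtype.ext
      show ⁅tz u, tz (v + v')⁆ = ⁅tz u, tz v⁆ * ⁅tz u, tz v'⁆
      have e1 : ⁅tz u, tz (v + v')⁆ = ⁅tz u, tz v * tz v'⁆ :=
        comm_eq_of_map_eq τ hc rfl (by rw [map_mul, htz, htz, htz, hT3])
      rw [e1, comm_mul_right_of_comm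
        (Subgroup.mem_center_iff.mp (hcenU3 _ 0 0 u v' (htz u)) _)]
    · intro κ hκ u v
      apply Subtype.ext
      show ⁅tz (κ * u), tz (κ * v)⁆ = ⁅tz u, tz v⁆
      obtain ⟨μ, hμ, -⟩ := hunit1 κ hκ
      have e1 : gH μ * ⁅tz u, tz v⁆ * (gH μ)⁻¹ = ⁅tz u, tz v⁆ := by
        rw [Subgroup.mem_center_iff.mp (hcenU3 _ 0 0 u v (htz u)) (gH μ), mul_inv_cancel_right]
      rw [← e1, conj_comm]
      apply comm_eq_of_map_eq τ hc
      · rw [htz, hconj μ _ 0 0 u (htz u), mul_zero, mul_zero, hμ]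
      · rw [htz, hconj μ _ 0 0 v (htz v), mul_zero, mul_zero, hμ]
  have hZ3 : ∀ x y : Y, (∃ b, τ x = T 0 0 b) → (∃ e, τ y = T 0 0 e) → x * y = y * x := by
    rintro x y ⟨b, hb⟩ ⟨e, he⟩
    have h1 := comm_eq_of_map_eq τ hc (x := x) (x' := tz b) (y := y) (y' := tz e)
      (by rw [hb, htz]) (by rw [he, htz])
    have h2 : ⁅tz b, tz e⁆ = 1 := congrArg Subtype.val (hβ3 b e)
    rw [h2] at h1
    exact commutatorElement_eq_one_iff_mul_comm.mp h1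
  -- 2a. the pairing on `Z₂ / Z₃ × Z₃`
  have hβ23 : ∀ b a, (⟨⁅ty a, tz b⁆, hcenU3 _ 0 a 0 b (hty a)⟩ : Subgroup.center Y) = 1 := by
    apply pairing_eq_one_of_twisted_inv hFs
      (fun b a => (⟨⁅ty a, tz b⁆, hcenU3 _ 0 a 0 b (hty a)⟩ : Subgroup.center Y))
    · intro u u' v
      apply Subtype.ext
      show ⁅ty v, tz (u + u')⁆ = ⁅ty v, tz u⁆ * ⁅ty v, tz u'⁆
      have e1 : ⁅ty v, tz (u + u')⁆ = ⁅ty v, tz u * tz u'⁆ :=
        comm_eq_of_map_eq τ hc rfl (by rw [map_mul, htz, htz, htz, hT3])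
      rw [e1, comm_mul_right_of_comm
        (Subgroup.mem_center_iff.mp (hcenU3 _ 0 v 0 u' (hty v)) _)]
    · intro u v v'
      apply Subtype.ext
      show ⁅ty (v + v'), tz u⁆ = ⁅ty v, tz u⁆ * ⁅ty v', tz u⁆
      have e1 : ⁅ty (v + v'), tz u⁆ = ⁅ty v * ty v', tz u⁆ :=
        comm_eq_of_map_eq τ hc (by rw [map_mul, hty, hty, hty, hT2]) rfl
      rw [e1, comm_mul_left_of_comm
        (Subgroup.mem_center_iff.mp (hcenU3 _ 0 v' 0 u (hty v')) _)]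
      exact (Subgroup.mem_center_iff.mp (hcenU3 _ 0 v' 0 u (hty v')) _).symm
    · intro κ hκ u v
      apply Subtype.ext
      show ⁅ty (κ ^ (s + 1) * v), tz (κ * u)⁆ = ⁅ty v, tz u⁆
      obtain ⟨μ, hμ, hμ'⟩ := hunit1 κ hκ
      have e1 : gH μ * ⁅ty v, tz u⁆ * (gH μ)⁻¹ = ⁅ty v, tz u⁆ := by
        rw [Subgroup.mem_center_iff.mp (hcenU3 _ 0 v 0 u (hty v)) (gH μ), mul_inv_cancel_right]
      rw [← e1, conj_comm]
      apply comm_eq_of_map_eq τ hc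
      · rw [hty, hconj μ _ 0 v 0 (hty v), mul_zero, mul_zero, hμ']
      · rw [htz, hconj μ _ 0 0 u (htz u), mul_zero, mul_zero, hμ]
  have hZ23 : ∀ x y : Y, (∃ a b, τ x = T 0 a b) → (∃ e, τ y = T 0 0 e) → x * y = y * x := by
    rintro x y ⟨a, b, hab⟩ ⟨e, he⟩
    have h1 := comm_eq_of_map_eq τ hc (x := x) (x' := ty a * tz b) (y := y) (y' := tz e)
      (by rw [hab, map_mul, hty, htz, hT23]) (by rw [he, htz])
    have h2 : ⁅ty a * tz b, tz e⁆ = ⁅ty a, tz e⁆ :=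
      comm_mul_cancel_left (hZ3 _ _ ⟨_, htz b⟩ ⟨_, htz e⟩)
    have h3 : ⁅ty a, tz e⁆ = 1 := congrArg Subtype.val (hβ23 e a)
    rw [h2, h3] at h1
    exact commutatorElement_eq_one_iff_mul_comm.mp h1
  -- 2b. the pairing on `U / Z₂ × Z₃`
  have hβ13 : ∀ t b, (⟨⁅tx t, tz b⁆, hcenU3 _ t 0 0 b (htx t)⟩ : Subgroup.center Y) = 1 := by
    apply pairing_eq_one_of_twisted_inv hFt
      (fun t b => (⟨⁅tx t, tz b⁆, hcenU3 _ t 0 0 b (htx t)⟩ : Subgroup.center Y))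
    · intro u u' v
      apply Subtype.ext
      show ⁅tx (u + u'), tz v⁆ = ⁅tx u, tz v⁆ * ⁅tx u', tz v⁆
      have hn : τ (ty (-(u ^ 3 ^ m * u')) *
          tz ((u ^ 3 ^ m) ^ 2 * u' + 2 * u' ^ 3 ^ m * (u ^ 3 ^ m * u'))) =
          T 0 (-(u ^ 3 ^ m * u')) ((u ^ 3 ^ m) ^ 2 * u' + 2 * u' ^ 3 ^ m * (u ^ 3 ^ m * u')) := by
        rw [map_mul, hty, htz, hT23]
      have e1 : ⁅tx (u + u'), tz v⁆ = ⁅tx u * (tx u' * (ty (-(u ^ 3 ^ m * u')) *
          tz ((u ^ 3 ^ m) ^ 2 * u' + 2 * u' ^ 3 ^ m * (u ^ 3 ^ m * u')))), tz v⁆ := by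
        apply comm_eq_of_map_eq τ hc _ rfl
        rw [map_mul, map_mul, hn, htx, htx, htx, hmulr0, D.mul]
        congr 1 <;> ring
      have hcx : ⁅tx u' * (ty (-(u ^ 3 ^ m * u')) *
          tz ((u ^ 3 ^ m) ^ 2 * u' + 2 * u' ^ 3 ^ m * (u ^ 3 ^ m * u'))), tz v⁆ ∈
          Subgroup.center Y :=
        hcenU3 _ _ _ _ v (by rw [map_mul, hn, htx, hmulr0])
      have e2 : ⁅tx u' * (ty (-(u ^ 3 ^ m * u')) *
          tz ((u ^ 3 ^ m) ^ 2 * u' + 2 * u' ^ 3 ^ m * (u ^ 3 ^ m * u'))), tz v⁆ =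
          ⁅tx u', tz v⁆ :=
        comm_mul_cancel_left (hZ23 _ _ ⟨_, _, hn⟩ ⟨_, htz v⟩)
      rw [e1, comm_mul_left_of_comm (Subgroup.mem_center_iff.mp hcx _), e2]
      exact (Subgroup.mem_center_iff.mp (hcenU3 _ u' 0 0 v (htx u')) _).symm
    · intro u v v'
      apply Subtype.ext
      show ⁅tx u, tz (v + v')⁆ = ⁅tx u, tz v⁆ * ⁅tx u, tz v'⁆
      have e1 : ⁅tx u, tz (v + v')⁆ = ⁅tx u, tz v * tz v'⁆ :=
        comm_eq_of_map_eq τ hc rfl (by rw [map_mul, htz, htz, htz, hT3])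
      rw [e1, comm_mul_right_of_comm
        (Subgroup.mem_center_iff.mp (hcenU3 _ u 0 0 v' (htx u)) _)]
    · intro κ hκ u v
      apply Subtype.ext
      show ⁅tx (κ * u), tz (κ ^ (2 * 3 ^ m + 1) * v)⁆ = ⁅tx u, tz v⁆
      have e1 : gH (Units.mk0 κ hκ) * ⁅tx u, tz v⁆ * (gH (Units.mk0 κ hκ))⁻¹ = ⁅tx u, tz v⁆ := by
        rw [Subgroup.mem_center_iff.mp (hcenU3 _ u 0 0 v (htx u)) (gH (Units.mk0 κ hκ)),
          mul_inv_cancel_right]
      rw [← e1, conj_comm]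
      apply comm_eq_of_map_eq τ hc
      · rw [htx, hconj (Units.mk0 κ hκ) _ u 0 0 (htx u), mul_zero, mul_zero, Units.val_mk0]
      · rw [htz, hconj (Units.mk0 κ hκ) _ 0 0 v (htz v), mul_zero, mul_zero, Units.val_mk0]
  have hZU3 : ∀ x y : Y, (∃ t a b, τ x = T t a b) → (∃ e, τ y = T 0 0 e) → x * y = y * x := by
    rintro x y ⟨t, a, b, hab⟩ ⟨e, he⟩
    have hn : τ (ty a * tz (b - 2 * t ^ 3 ^ m * a)) = T 0 a (b - 2 * t ^ 3 ^ m * a) := by
      rw [map_mul, hty, htz, hT23]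
    have h1 := comm_eq_of_map_eq τ hc (x := x) (x' := tx t * (ty a * tz (b - 2 * t ^ 3 ^ m * a)))
      (y := y) (y' := tz e)
      (by
        rw [hab, map_mul, hn, htx, hmulr0]
        congr 1 <;> ring) (by rw [he, htz])
    have h2 : ⁅tx t * (ty a * tz (b - 2 * t ^ 3 ^ m * a)), tz e⁆ = ⁅tx t, tz e⁆ :=
      comm_mul_cancel_left (hZ23 _ _ ⟨_, _, hn⟩ ⟨_, htz e⟩)
    have h3 : ⁅tx t, tz e⁆ = 1 := congrArg Subtype.val (hβ13 t e)
    rw [h2, h3] at h1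
    exact commutatorElement_eq_one_iff_mul_comm.mp h1
  -- 3. the pairing on `Z₂ / Z₃ × Z₂ / Z₃`
  have hcen22 : ∀ a a', ⁅ty a, ty a'⁆ ∈ Subgroup.center Y := fun a a' =>
    comm_mem_center_of_map_comm τ hc (by rw [hty, hty]; exact hZ2c a 0 a' 0)
  have hβ22 : ∀ a a', (⟨⁅ty a, ty a'⁆, hcen22 a a'⟩ : Subgroup.center Y) = 1 := by
    apply pkgSq.{u, w} F (Subgroup.center Y) hF27 h2ne
      (fun a a' => (⟨⁅ty a, ty a'⁆, hcen22 a a'⟩ : Subgroup.center Y))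
    · intro u u' v
      apply Subtype.ext
      show ⁅ty (u + u'), ty v⁆ = ⁅ty u, ty v⁆ * ⁅ty u', ty v⁆
      have e1 : ⁅ty (u + u'), ty v⁆ = ⁅ty u * ty u', ty v⁆ :=
        comm_eq_of_map_eq τ hc (by rw [map_mul, hty, hty, hty, hT2]) rfl
      rw [e1, comm_mul_left_of_comm (Subgroup.mem_center_iff.mp (hcen22 u' v) _)]
      exact (Subgroup.mem_center_iff.mp (hcen22 u' v) _).symm
    · intro u v v'
      apply Subtype.ext
      show ⁅ty u, ty (v + v')⁆ = ⁅ty u, ty v⁆ * ⁅ty u, ty v'⁆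
      have e1 : ⁅ty u, ty (v + v')⁆ = ⁅ty u, ty v * ty v'⁆ :=
        comm_eq_of_map_eq τ hc rfl (by rw [map_mul, hty, hty, hty, hT2])
      rw [e1, comm_mul_right_of_comm (Subgroup.mem_center_iff.mp (hcen22 u v') _)]
    · intro κ hκ u v
      apply Subtype.ext
      show ⁅ty (κ ^ 2 * u), ty (κ ^ 2 * v)⁆ = ⁅ty u, ty v⁆
      obtain ⟨μ, hμ⟩ := hunit2 κ hκ
      have e1 : gH μ * ⁅ty u, ty v⁆ * (gH μ)⁻¹ = ⁅ty u, ty v⁆ := by
        rw [Subgroup.mem_center_iff.mp (hcen22 u v) (gH μ), mul_inv_cancel_right]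
      rw [← e1, conj_comm]
      apply comm_eq_of_map_eq τ hc
      · rw [hty, hconj μ _ 0 u 0 (hty u), mul_zero, mul_zero, hμ]
      · rw [hty, hconj μ _ 0 v 0 (hty v), mul_zero, mul_zero, hμ]
  refine ⟨?_, hZU3⟩
  rintro x y ⟨a, b, hab⟩ ⟨a', b', hab'⟩
  have h1 := comm_eq_of_map_eq τ hc (x := x) (x' := ty a * tz b) (y := y) (y' := ty a' * tz b')
    (by rw [hab, map_mul, hty, htz, hT23]) (by rw [hab', map_mul, hty, htz, hT23])
  have h2 : ⁅ty a * tz b, ty a' * tz b'⁆ = ⁅ty a, ty a' * tz b'⁆ :=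
    comm_mul_cancel_left
      (hZ23 _ _ ⟨a', b', by rw [map_mul, hty, htz, hT23]⟩ ⟨b, htz b⟩).symm
  have h3 : ⁅ty a, ty a' * tz b'⁆ = ⁅ty a, ty a'⁆ :=
    comm_mul_cancel_right (hZ23 _ _ ⟨a, 0, hty a⟩ ⟨b', htz b'⟩)
  have h4 : ⁅ty a, ty a'⁆ = 1 := congrArg Subtype.val (hβ22 a a')
  rw [h2, h3, h4] at h1
  exact commutatorElement_eq_one_iff_mul_comm.mp h1

end Cfsg.Agent.Lib.Helper17.ReeMult
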