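import Cfsg.Agent.Lib.Helper17.ReeMult.Defs
import Cfsg.Agent.Lib.Helper59.SzMultB

set_option autoImplicit false

/-!
# (CB) central commutators in the preimage of the Sylow `3`-subgroup

Given (CA): a central element of the commutator subgroup of the preimage of `{T t a b}` is
killed by `q - 1`, by the norm of the commutative preimage of `{T 0 a b}` under the torus.
-/

universe u v w

namespace Cfsg.Agent.Lib.Helper17.ReeMult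

open scoped commutatorElement

open Cfsg.Agent.Lib.Helper59 (pairing_eq_one_of_scale_inv pairing_eq_one_of_twisted_inv
  comm_eq_of_map_eq conj_eq_of_map_eq comm_mem_center_of_map_comm comm_mul_left_of_comm
  comm_mul_right_of_comm comm_mul_cancel_left comm_mul_cancel_right conj_comm exists_norm_hom)

theorem comm_mul_left_expand {Y : Type*} [Group Y] (x x' y : Y) :
    ⁅x * x', y⁆ = ⁅x, ⁅x', y⁆⁆ * ⁅x', y⁆ * ⁅x, y⁆ := by
  simp only [commutatorElement_def]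
  group

theorem comm_mul_right_expand {Y : Type*} [Group Y] (x y y' : Y) :
    ⁅x, y * y'⁆ = ⁅x, y⁆ * ⁅y, ⁅x, y'⁆⁆ * ⁅x, y'⁆ := by
  simp only [commutatorElement_def]
  group

theorem pkgCB : PkgCB.{u, v, w} := by
  intro F _ _ G _ Y _ m T Hh τ hm hF D hτ hc hZ2 hZU3 S hS w hw hwk
  classical
  have hθ0 : (3 : ℕ) ^ m ≠ 0 := pow_ne_zero _ (by norm_num)
  have h0θ : (0 : F) ^ 3 ^ m = 0 := zero_pow hθ0
  have hθ3 : 3 ≤ 3 ^ m := by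
    calc 3 = 3 ^ 1 := by norm_num
      _ ≤ 3 ^ m := Nat.pow_le_pow_right (by norm_num) hm
  have hq : 3 ^ (2 * m + 1) = 3 * 3 ^ m * 3 ^ m := by
    rw [pow_succ, pow_mul']
    ring
  rw [hq] at hF
  have hF4 : 4 < Fintype.card F := by
    rw [hF]
    nlinarith
  have hFθ : 2 * 3 ^ m + 4 < Fintype.card F := by
    rw [hF]
    nlinarith
  -- the multiplication rule
  have hmul0 : ∀ a b t' a' b', T 0 a b * T t' a' b' = T t' (a + a') (b + b') := by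
    intro a b t' a' b'
    rw [D.mul, h0θ]
    congr 1 <;> ring
  have hmulr0 : ∀ t a b a' b', T t a b * T 0 a' b' =
      T t (a + a') (b + 2 * t ^ 3 ^ m * a' + b') := by
    intro t a b a' b'
    rw [D.mul]
    congr 1 <;> ring
  have hT000 : T 0 0 0 = 1 := by
    have h := hmul0 0 0 0 0 0
    rw [add_zero] at h
    exact mul_left_cancel (a := T 0 0 0) (by rw [h, mul_one])
  have hT23 : ∀ a b, T 0 a 0 * T 0 0 b = T 0 a b := by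
    intro a b
    rw [hmul0, add_zero, zero_add]
  have hTcomm : ∀ t a b t' a' b', ∃ c d,
      T t a b * T t' a' b' = T 0 c d * (T t' a' b' * T t a b) := by
    intro t a b t' a' b'
    refine ⟨(a + t ^ 3 ^ m * t' + a') - (a' + t' ^ 3 ^ m * t + a),
      (b + (t ^ 3 ^ m) ^ 2 * t' + 2 * t ^ 3 ^ m * a' + b') -
        (b' + (t' ^ 3 ^ m) ^ 2 * t + 2 * t' ^ 3 ^ m * a + b), ?_⟩
    rw [D.mul, D.mul, hmul0]
    congr 1 <;> ring
  have hTcomm3 : ∀ t a b a' b',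
      T t a b * T 0 a' b' = T 0 0 (2 * t ^ 3 ^ m * a') * (T 0 a' b' * T t a b) := by
    intro t a b a' b'
    rw [hmulr0, hmul0, hmul0]
    congr 1 <;> ring
  -- lifts
  choose tx htx using fun t => hτ (T t 0 0)
  choose ty hty using fun a => hτ (T 0 a 0)
  choose tz htz using fun b => hτ (T 0 0 b)
  choose gH hgH using fun ν => hτ (Hh ν)
  have hconj : ∀ (ν : Fˣ) (x : Y) (t a b : F), τ x = T t a b →
      τ (gH ν * x * (gH ν)⁻¹) =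
        T ((ν : F) * t) ((ν : F) ^ (3 ^ m + 1) * a) ((ν : F) ^ (2 * 3 ^ m + 1) * b) := by
    intro ν x t a b hx
    rw [map_mul, map_mul, map_inv, hgH, hx, D.conj]
  -- the commutative subgroup `N₂` and its norm
  let N₂ : Subgroup Y :=
    { carrier := {y | ∃ a b, τ y = T 0 a b}
      one_mem' := ⟨0, 0, by rw [map_one, hT000]⟩
      mul_mem' := by
        rintro x y ⟨a, b, h⟩ ⟨a', b', h'⟩
        exact ⟨a + a', b + b', by rw [map_mul, h, h', hmul0]⟩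
      inv_mem' := by
        rintro x ⟨a, b, h⟩
        refine ⟨-a, -b, ?_⟩
        rw [map_inv, h]
        exact inv_eq_of_mul_eq_one_right (by rw [hmul0, add_neg_cancel, add_neg_cancel, hT000]) }
  have hN2A : ∀ x ∈ N₂, ∀ y ∈ N₂, x * y = y * x := fun x hx y hy => hZ2 x y hx hy
  have hgN2 : ∀ μ : Fˣ, ∀ x ∈ N₂, gH μ * x * (gH μ)⁻¹ ∈ N₂ := by
    rintro μ x ⟨a, b, h⟩
    exact ⟨_, _, by rw [hconj μ x 0 a b h, mul_zero]⟩
  have hN2N : ∀ y, y ∈ N₂ → ∃ t a b, τ y = T t a b := by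
    rintro y ⟨a, b, h⟩
    exact ⟨0, a, b, h⟩
  obtain ⟨P, hP1, hP2⟩ := exists_norm_hom N₂ hN2A gH hgN2
  have hPinv : ∀ (μ : Fˣ) (x : ↥N₂), P ⟨gH μ * x * (gH μ)⁻¹, hgN2 μ x x.2⟩ = P x := by
    intro μ x
    refine hP2 (Equiv.mulRight μ) (gH μ) (hgN2 μ) (fun ν y _ => ?_) x
    have hk : τ (gH ((Equiv.mulRight μ) ν)) = τ (gH ν * gH μ) := by
      rw [map_mul, hgH, hgH, hgH, D.hmul]
      rfl
    rw [conj_eq_of_map_eq τ hc hk]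
    group
  let PP : Y → ↥N₂ := fun y => if h : y ∈ N₂ then P ⟨y, h⟩ else 1
  have hPP : ∀ (y : Y) (h : y ∈ N₂), PP y = P ⟨y, h⟩ := fun y h => dif_pos h
  have hPPmul : ∀ y y' : Y, y ∈ N₂ → y' ∈ N₂ → PP (y * y') = PP y * PP y' := by
    intro y y' h h'
    rw [hPP _ (N₂.mul_mem h h'), hPP _ h, hPP _ h', ← map_mul]
    rfl
  have hPPinv : ∀ y : Y, y ∈ N₂ → PP y⁻¹ = (PP y)⁻¹ := by
    intro y h
    rw [hPP _ (N₂.inv_mem h), hPP _ h, ← map_inv]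
    rfl
  have hPPconj : ∀ (μ : Fˣ) (y : Y), y ∈ N₂ → PP (gH μ * y * (gH μ)⁻¹) = PP y := by
    intro μ y h
    rw [hPP _ (hgN2 μ y h), hPP _ h]
    exact hPinv μ ⟨y, h⟩
  have hPPcomm : ∀ y y' : Y, PP y * PP y' = PP y' * PP y := fun y y' =>
    Subtype.ext (hN2A _ (PP y).2 _ (PP y').2)
  -- commutators
  have hcommN2 : ∀ x y : Y, (∃ t a b, τ x = T t a b) → (∃ t a b, τ y = T t a b) →
      ⁅x, y⁆ ∈ N₂ := by
    rintro x y ⟨t, a, b, hx⟩ ⟨t', a', b', hy⟩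
    obtain ⟨c, d, h⟩ := hTcomm t a b t' a' b'
    refine ⟨c, d, ?_⟩
    rw [map_commutatorElement, hx, hy, commutatorElement_def, h]
    group
  have hcommN3 : ∀ x y : Y, (∃ t a b, τ x = T t a b) → y ∈ N₂ → ∃ e, τ ⁅x, y⁆ = T 0 0 e := by
    rintro x y ⟨t, a, b, hx⟩ ⟨a', b', hy⟩
    refine ⟨2 * t ^ 3 ^ m * a', ?_⟩
    rw [map_commutatorElement, hx, hy, commutatorElement_def, hTcomm3 t a b a' b']
    group
  -- (i) commutators of `N` with `N₂`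
  have hc2_left : ∀ x x' y : Y, (∃ t a b, τ x = T t a b) → (∃ t a b, τ x' = T t a b) →
      y ∈ N₂ → ⁅x * x', y⁆ = ⁅x', y⁆ * ⁅x, y⁆ := fun x x' y hx hx' hy =>
    comm_mul_left_of_comm (hZU3 x ⁅x', y⁆ hx (hcommN3 x' y hx' hy))
  have hc2_right : ∀ x y y' : Y, (∃ t a b, τ x = T t a b) → y ∈ N₂ → y' ∈ N₂ →
      ⁅x, y * y'⁆ = ⁅x, y⁆ * ⁅x, y'⁆ := fun x y y' hx hy hy' =>
    comm_mul_right_of_comm (hZU3 y ⁅x, y'⁆ (hN2N y hy) (hcommN3 x y' hx hy'))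
  have hsplit : ∀ (x : Y) (t a b : F), τ x = T t a b →
      ∃ n ∈ N₂, τ x = τ (tx t * n) := by
    intro x t a b hx
    have hn : τ (ty a * tz (b - 2 * t ^ 3 ^ m * a)) = T 0 a (b - 2 * t ^ 3 ^ m * a) := by
      rw [map_mul, hty, htz, hT23]
    refine ⟨ty a * tz (b - 2 * t ^ 3 ^ m * a), ⟨_, _, hn⟩, ?_⟩
    rw [hx, map_mul, hn, htx, hmulr0]
    congr 1 <;> ring
  have hred2 : ∀ (x y : Y) (t a b a' b' : F), τ x = T t a b → τ y = T 0 a' b' →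
      ⁅x, y⁆ = ⁅tx t, ty a'⁆ := by
    intro x y t a b a' b' hx hy
    obtain ⟨n, hn, hxn⟩ := hsplit x t a b hx
    have e1 : ⁅x, y⁆ = ⁅tx t * n, ty a' * tz b'⁆ :=
      comm_eq_of_map_eq τ hc hxn (by rw [hy, map_mul, hty, htz, hT23])
    have hy2 : ty a' * tz b' ∈ N₂ := ⟨a', b', by rw [map_mul, hty, htz, hT23]⟩
    have e2 : ⁅tx t * n, ty a' * tz b'⁆ = ⁅tx t, ty a' * tz b'⁆ :=
      comm_mul_cancel_left (hN2A n hn _ hy2)
    have e3 : ⁅tx t, ty a' * tz b'⁆ = ⁅tx t, ty a'⁆ :=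
      comm_mul_cancel_right (hZU3 _ _ ⟨t, 0, 0, htx t⟩ ⟨b', htz b'⟩)
    rw [e1, e2, e3]
  have hc2mem : ∀ t a, ⁅tx t, ty a⁆ ∈ N₂ := fun t a =>
    hcommN2 _ _ ⟨t, 0, 0, htx t⟩ ⟨0, a, 0, hty a⟩
  have hc2_add_left : ∀ u u' v, ⁅tx (u + u'), ty v⁆ = ⁅tx u, ty v⁆ * ⁅tx u', ty v⁆ := by
    intro u u' v
    have e1 := hred2 (tx u * tx u') (ty v) (u + u') _ _ v 0
      (by rw [map_mul, htx, htx, D.mul]) (hty v)
    rw [← e1, hc2_left _ _ _ ⟨u, 0, 0, htx u⟩ ⟨u', 0, 0, htx u'⟩ ⟨v, 0, hty v⟩]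
    exact hN2A _ (hc2mem u' v) _ (hc2mem u v)
  have hc2_add_right : ∀ u v v', ⁅tx u, ty (v + v')⁆ = ⁅tx u, ty v⁆ * ⁅tx u, ty v'⁆ := by
    intro u v v'
    have e1 := hred2 (tx u) (ty v * ty v') u 0 0 (v + v') (0 + 0) (htx u)
      (by rw [map_mul, hty, hty, hmul0])
    rw [← e1, hc2_right _ _ _ ⟨u, 0, 0, htx u⟩ ⟨v, 0, hty v⟩ ⟨v', 0, hty v'⟩]
  have hc2_conj : ∀ (μ : Fˣ) (u v : F), gH μ * ⁅tx u, ty v⁆ * (gH μ)⁻¹ =
      ⁅tx ((μ : F) * u), ty ((μ : F) ^ (3 ^ m + 1) * v)⁆ := by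
    intro μ u v
    rw [conj_comm]
    have h2 : τ (gH μ * ty v * (gH μ)⁻¹) =
        T 0 ((μ : F) ^ (3 ^ m + 1) * v) ((μ : F) ^ (2 * 3 ^ m + 1) * 0) := by
      rw [hconj μ _ 0 v 0 (hty v), mul_zero]
    exact hred2 _ _ _ _ _ _ _ (hconj μ _ u 0 0 (htx u)) h2
  have hPc2 : ∀ u v, PP ⁅tx u, ty v⁆ = 1 := by
    apply pairing_eq_one_of_twisted_inv hFθ (fun u v => PP ⁅tx u, ty v⁆)
    · intro u u' v
      show PP ⁅tx (u + u'), ty v⁆ = PP ⁅tx u, ty v⁆ * PP ⁅tx u', ty v⁆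
      rw [hc2_add_left, hPPmul _ _ (hc2mem u v) (hc2mem u' v)]
    · intro u v v'
      show PP ⁅tx u, ty (v + v')⁆ = PP ⁅tx u, ty v⁆ * PP ⁅tx u, ty v'⁆
      rw [hc2_add_right, hPPmul _ _ (hc2mem u v) (hc2mem u v')]
    · intro κ hκ u v
      show PP ⁅tx (κ * u), ty (κ ^ (3 ^ m + 1) * v)⁆ = PP ⁅tx u, ty v⁆
      have e := hc2_conj (Units.mk0 κ hκ) u v
      rw [Units.val_mk0] at e
      rw [← e]
      exact hPPconj _ _ (hc2mem u v)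
  have hP2gen : ∀ x y : Y, (∃ t a b, τ x = T t a b) → y ∈ N₂ → PP ⁅x, y⁆ = 1 := by
    rintro x y ⟨t, a, b, hx⟩ ⟨a', b', hy⟩
    rw [hred2 x y t a b a' b' hx hy]
    exact hPc2 t a'
  -- (ii) commutators of `N` with `N`
  have hφl : ∀ x x' y : Y, (∃ t a b, τ x = T t a b) → (∃ t a b, τ x' = T t a b) →
      (∃ t a b, τ y = T t a b) → PP ⁅x * x', y⁆ = PP ⁅x', y⁆ * PP ⁅x, y⁆ := by
    intro x x' y hx hx' hy
    have h2 : ⁅x', y⁆ ∈ N₂ := hcommN2 x' y hx' hy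
    have h1 : ⁅x, ⁅x', y⁆⁆ ∈ N₂ := hcommN2 x _ hx (hN2N _ h2)
    have h3 : ⁅x, y⁆ ∈ N₂ := hcommN2 x y hx hy
    rw [comm_mul_left_expand, hPPmul _ _ (N₂.mul_mem h1 h2) h3, hPPmul _ _ h1 h2,
      hP2gen x _ hx h2, one_mul]
  have hφr : ∀ x y y' : Y, (∃ t a b, τ x = T t a b) → (∃ t a b, τ y = T t a b) →
      (∃ t a b, τ y' = T t a b) → PP ⁅x, y * y'⁆ = PP ⁅x, y⁆ * PP ⁅x, y'⁆ := by
    intro x y y' hx hy hy'
    have h1 : ⁅x, y⁆ ∈ N₂ := hcommN2 x y hx hy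
    have h3 : ⁅x, y'⁆ ∈ N₂ := hcommN2 x y' hx hy'
    have h2 : ⁅y, ⁅x, y'⁆⁆ ∈ N₂ := hcommN2 y _ hy (hN2N _ h3)
    rw [comm_mul_right_expand, hPPmul _ _ (N₂.mul_mem h1 h2) h3, hPPmul _ _ h1 h2,
      hP2gen y _ hy h3, mul_one]
  have hφN2l : ∀ x y : Y, x ∈ N₂ → (∃ t a b, τ y = T t a b) → PP ⁅x, y⁆ = 1 := by
    intro x y hx hy
    have h1 : ⁅y, x⁆ ∈ N₂ := hcommN2 y x hy (hN2N x hx)
    rw [← commutatorElement_inv, hPPinv _ h1, hP2gen y x hy hx, inv_one]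
  have hredφ : ∀ (x y : Y) (t a b t' a' b' : F), τ x = T t a b → τ y = T t' a' b' →
      PP ⁅x, y⁆ = PP ⁅tx t, tx t'⁆ := by
    intro x y t a b t' a' b' hx hy
    obtain ⟨n, hn, hxn⟩ := hsplit x t a b hx
    obtain ⟨n', hn', hyn⟩ := hsplit y t' a' b' hy
    have e1 : ⁅x, y⁆ = ⁅tx t * n, tx t' * n'⁆ := comm_eq_of_map_eq τ hc hxn hyn
    have hy' : ∃ t a b, τ (tx t' * n') = T t a b := ⟨t', a', b', by rw [← hyn, hy]⟩
    rw [e1, hφl _ _ _ ⟨t, 0, 0, htx t⟩ (hN2N n hn) hy', hφN2l n _ hn hy', one_mul,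
      hφr _ _ _ ⟨t, 0, 0, htx t⟩ ⟨t', 0, 0, htx t'⟩ (hN2N n' hn'),
      hP2gen _ n' ⟨t, 0, 0, htx t⟩ hn', mul_one]
  have hφ0 : ∀ u v, PP ⁅tx u, tx v⁆ = 1 := by
    apply pairing_eq_one_of_scale_inv hF4 (fun u v => PP ⁅tx u, tx v⁆)
    · intro u u' v
      show PP ⁅tx (u + u'), tx v⁆ = PP ⁅tx u, tx v⁆ * PP ⁅tx u', tx v⁆
      have e1 := hredφ (tx u * tx u') (tx v) (u + u') _ _ v 0 0
        (by rw [map_mul, htx, htx, D.mul]) (htx v)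
      rw [← e1, hφl _ _ _ ⟨u, 0, 0, htx u⟩ ⟨u', 0, 0, htx u'⟩ ⟨v, 0, 0, htx v⟩]
      exact hPPcomm _ _
    · intro u v v'
      show PP ⁅tx u, tx (v + v')⁆ = PP ⁅tx u, tx v⁆ * PP ⁅tx u, tx v'⁆
      have e1 := hredφ (tx u) (tx v * tx v') u 0 0 (v + v') _ _ (htx u)
        (by rw [map_mul, htx, htx, D.mul])
      rw [← e1, hφr _ _ _ ⟨u, 0, 0, htx u⟩ ⟨v, 0, 0, htx v⟩ ⟨v', 0, 0, htx v'⟩]
    · intro κ hκ u v
      show PP ⁅tx (κ * u), tx (κ * v)⁆ = PP ⁅tx u, tx v⁆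
      have e1 := hredφ _ _ _ _ _ _ _ _ (hconj (Units.mk0 κ hκ) _ u 0 0 (htx u))
        (hconj (Units.mk0 κ hκ) _ v 0 0 (htx v))
      rw [Units.val_mk0, ← conj_comm] at e1
      rw [← e1]
      exact hPPconj _ _ (hcommN2 _ _ ⟨u, 0, 0, htx u⟩ ⟨v, 0, 0, htx v⟩)
  -- conclusion
  have hK : ⁅S.comap τ, S.comap τ⁆ ≤ (P.ker).map N₂.subtype := by
    rw [Subgroup.commutator_le]
    intro x hx y hy
    obtain ⟨t, a, b, hab⟩ := (hS _).mp (Subgroup.mem_comap.mp hx)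
    obtain ⟨t', a', b', hab'⟩ := (hS _).mp (Subgroup.mem_comap.mp hy)
    have hmem : ⁅x, y⁆ ∈ N₂ := hcommN2 x y ⟨t, a, b, hab⟩ ⟨t', a', b', hab'⟩
    refine ⟨⟨⁅x, y⁆, hmem⟩, MonoidHom.mem_ker.mpr ?_, rfl⟩
    rw [← hPP _ hmem, hredφ x y t a b t' a' b' hab hab']
    exact hφ0 t t'
  obtain ⟨v, hv, hvw⟩ := hK hw
  have hvw' : (v : Y) = w := hvw
  have hwc : (v : Y) ∈ Subgroup.center Y := by
    rw [hvw']
    exact hc (MonoidHom.mem_ker.mpr hwk)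
  have h1 := hP1 v hwc
  rw [MonoidHom.mem_ker.mp hv, Fintype.card_units] at h1
  rw [← hvw', ← h1]
  rfl

end Cfsg.Agent.Lib.Helper17.ReeMult
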