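import Mathlib

set_option autoImplicit false

/-!
# The Schur multiplier of the small Ree groups (S2113): abstract packages

A finite stem extension `τ : Y → G` of a small Ree group `G` is an isomorphism.  For `z ∈ ker τ`
the transfer gives `z ^ [G : K] = 1` whenever the preimage of `K` is commutative (cyclic `K`, and a
Sylow `2`-subgroup `K`), and `z ^ ([G : U] (q - 1)) = 1` for the Sylow `3`-subgroup `U`.  The
packages below are statements about arbitrary groups and fields.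
-/

universe u v w

namespace Cfsg.Agent.Lib.Helper17.ReeMult

open scoped commutatorElement

/-- the multiplication rule of a Sylow `3`-subgroup of a small Ree group in coordinates
`T t a b`, and the action of the torus elements `Hh ν` on it -/
structure UData {F : Type u} [Field F] {G : Type v} [Group G] (m : ℕ) (T : F → F → F → G)
    (Hh : Fˣ → G) : Prop where
  mul : ∀ t a b t' a' b' : F, T t a b * T t' a' b' =
    T (t + t') (a + t ^ 3 ^ m * t' + a') (b + (t ^ 3 ^ m) ^ 2 * t' + 2 * t ^ 3 ^ m * a' + b')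
  conj : ∀ (ν : Fˣ) (t a b : F), Hh ν * T t a b * (Hh ν)⁻¹ =
    T ((ν : F) * t) ((ν : F) ^ (3 ^ m + 1) * a) ((ν : F) ^ (2 * 3 ^ m + 1) * b)
  hmul : ∀ μ ν : Fˣ, Hh μ * Hh ν = Hh (μ * ν)

/-- (SQ) a biadditive pairing that is invariant under scaling both arguments by any non-zero
square vanishes -/
def PkgSq : Prop :=
  ∀ (F : Type u) [Field F] [Fintype F] (A : Type v) [Group A], 27 ≤ Fintype.card F →
    (2 : F) ≠ 0 → ∀ β : F → F → A, (∀ u u' v, β (u + u') v = β u v * β u' v) →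
      (∀ u v v', β u (v + v') = β u v * β u v') →
      (∀ κ : F, κ ≠ 0 → ∀ u v, β (κ ^ 2 * u) (κ ^ 2 * v) = β u v) → ∀ u v, β u v = 1

/-- (CA) in a central extension `τ : Y → G`: the preimage of `{T 0 a b}` is commutative and the
preimage of `{T 0 0 b}` is central in the preimage of `{T t a b}` -/
def PkgCA : Prop :=
  ∀ (F : Type u) [Field F] [Fintype F] (G : Type v) [Group G] (Y : Type w) [Group Y] (m : ℕ)
    (T : F → F → F → G) (Hh : Fˣ → G) (τ : Y →* G), 1 ≤ m → Fintype.card F = 3 ^ (2 * m + 1) →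
    UData m T Hh → Function.Surjective τ → τ.ker ≤ Subgroup.center Y →
    (∀ x y : Y, (∃ a b, τ x = T 0 a b) → (∃ a b, τ y = T 0 a b) → x * y = y * x) ∧
    (∀ x y : Y, (∃ t a b, τ x = T t a b) → (∃ b, τ y = T 0 0 b) → x * y = y * x)

/-- (CB) given (CA): a central element of the commutator subgroup of the preimage of
`S = {T t a b}` has order dividing `q - 1` -/
def PkgCB : Prop :=
  ∀ (F : Type u) [Field F] [Fintype F] (G : Type v) [Group G] (Y : Type w) [Group Y] (m : ℕ)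
    (T : F → F → F → G) (Hh : Fˣ → G) (τ : Y →* G), 1 ≤ m → Fintype.card F = 3 ^ (2 * m + 1) →
    UData m T Hh → Function.Surjective τ → τ.ker ≤ Subgroup.center Y →
    (∀ x y : Y, (∃ a b, τ x = T 0 a b) → (∃ a b, τ y = T 0 a b) → x * y = y * x) →
    (∀ x y : Y, (∃ t a b, τ x = T t a b) → (∃ b, τ y = T 0 0 b) → x * y = y * x) →
    ∀ S : Subgroup G, (∀ g, g ∈ S ↔ ∃ t a b, g = T t a b) →
    ∀ w : Y, w ∈ ⁅S.comap τ, S.comap τ⁆ → τ w = 1 → w ^ (Fintype.card F - 1) = 1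

/-- (P2) in a central extension `τ : Y → G`: the preimage of a subgroup `P` of order `8` and
exponent `2` that is normalised, but not centralised, by an element `g` with `g ^ 7 = 1` is
commutative -/
def PkgP2 : Prop :=
  ∀ (G : Type u) [Group G] (Y : Type v) [Group Y] (τ : Y →* G) (P : Subgroup G) (g : G),
    Function.Surjective τ → τ.ker ≤ Subgroup.center Y → Nat.card ↥P = 8 →
    (∀ x ∈ P, x * x = 1) → (∀ x ∈ P, g * x * g⁻¹ ∈ P) → g ^ 7 = 1 →
    (∃ x ∈ P, g * x * g⁻¹ ≠ x) → ∀ y₁ y₂ : Y, τ y₁ ∈ P → τ y₂ ∈ P → y₁ * y₂ = y₂ * y₁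

/-- (ARITH) the arithmetic: a number `n` dividing the indices of subgroups of orders `q - 1`,
`q ± r + 1`, `(q + 1) / 4` and `8`, and `(q - 1)` times the index of a subgroup of order `q ^ 3`,
in a group of order `q ^ 3 (q ^ 3 + 1) (q - 1)`, `q = 3 ^ (2 m + 1)`, `r = 3 ^ (m + 1)`, is `1` -/
def PkgArith : Prop :=
  ∀ m n : ℕ, 1 ≤ m →
    (∀ i, (3 ^ (2 * m + 1) - 1) * i =
      (3 ^ (2 * m + 1)) ^ 3 * ((3 ^ (2 * m + 1)) ^ 3 + 1) * (3 ^ (2 * m + 1) - 1) → n ∣ i) →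
    (∀ i, (3 ^ (2 * m + 1) + 3 ^ (m + 1) + 1) * i =
      (3 ^ (2 * m + 1)) ^ 3 * ((3 ^ (2 * m + 1)) ^ 3 + 1) * (3 ^ (2 * m + 1) - 1) → n ∣ i) →
    (∀ i, (3 ^ (2 * m + 1) - 3 ^ (m + 1) + 1) * i =
      (3 ^ (2 * m + 1)) ^ 3 * ((3 ^ (2 * m + 1)) ^ 3 + 1) * (3 ^ (2 * m + 1) - 1) → n ∣ i) →
    (∀ i, ((3 ^ (2 * m + 1) + 1) / 4) * i =
      (3 ^ (2 * m + 1)) ^ 3 * ((3 ^ (2 * m + 1)) ^ 3 + 1) * (3 ^ (2 * m + 1) - 1) → n ∣ i) →
    (∀ i, 8 * i =
      (3 ^ (2 * m + 1)) ^ 3 * ((3 ^ (2 * m + 1)) ^ 3 + 1) * (3 ^ (2 * m + 1) - 1) → n ∣ i) →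
    (∀ i, (3 ^ (2 * m + 1)) ^ 3 * i =
      (3 ^ (2 * m + 1)) ^ 3 * ((3 ^ (2 * m + 1)) ^ 3 + 1) * (3 ^ (2 * m + 1) - 1) →
      n ∣ i * (3 ^ (2 * m + 1) - 1)) →
    n = 1

end Cfsg.Agent.Lib.Helper17.ReeMult
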