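import Cfsg.Agent.Lib.Helper17.ReeMult.Defs
import Cfsg.Agent.Lib.Helper59.SzMultA

set_option autoImplicit false

/-!
# (SQ) pairings invariant under scaling by squares
-/

universe u v

namespace Cfsg.Agent.Lib.Helper17.ReeMult

open Cfsg.Agent.Lib.Helper59 (pairing_eq_one_of_two_inv exists_eval_ne_zero)

theorem pkgSq : PkgSq.{u, v} := by
  intro F _ _ A _ hF h2 β h1 h2' hinv u v
  classical
  have h4 : (4 : F) ≠ 0 := by
    have : (4 : F) = 2 * 2 := by norm_num
    rw [this]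
    exact mul_ne_zero h2 h2
  have h16 : (16 : F) ≠ 0 := by
    have : (16 : F) = 4 * 4 := by norm_num
    rw [this]
    exact mul_ne_zero h4 h4
  obtain ⟨s, hs⟩ := exists_eval_ne_zero
    (Polynomial.X * (Polynomial.X ^ 2 - 1) * (Polynomial.X ^ 2 + 1) *
      ((1 - Polynomial.X ^ 2) ^ 4 + 4 * Polynomial.X ^ 2 * (1 - Polynomial.X ^ 2) ^ 2 +
        16 * Polynomial.X ^ 4) : Polynomial F)
    (by
      have hX1 : (Polynomial.X ^ 2 - 1 : Polynomial F) ≠ 0 := fun h => by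
        have := congrArg (Polynomial.eval 0) h
        simp at this
      have hX2 : (Polynomial.X ^ 2 + 1 : Polynomial F) ≠ 0 := fun h => by
        have := congrArg (Polynomial.eval 0) h
        simp at this
      have hX3 : ((1 - Polynomial.X ^ 2) ^ 4 + 4 * Polynomial.X ^ 2 * (1 - Polynomial.X ^ 2) ^ 2 +
          16 * Polynomial.X ^ 4 : Polynomial F) ≠ 0 := fun h => by
        have := congrArg (Polynomial.eval 0) h
        simp at this
      exact mul_ne_zero (mul_ne_zero (mul_ne_zero Polynomial.X_ne_zero hX1) hX2) hX3)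
    (by
      refine lt_of_le_of_lt (b := 13) ?_ (by omega)
      compute_degree)
  simp only [Polynomial.eval_mul, Polynomial.eval_add, Polynomial.eval_X, Polynomial.eval_pow,
    Polynomial.eval_one, Polynomial.eval_sub, Polynomial.eval_ofNat] at hs
  have hs0 : s ≠ 0 := by
    rintro rfl
    simp at hs
  have hs1 : s ^ 2 - 1 ≠ 0 := by
    intro h
    rw [h] at hs
    simp at hs
  have hs2 : s ^ 2 + 1 ≠ 0 := by
    intro h
    rw [h] at hs
    simp at hs
  have hs3 : (1 - s ^ 2) ^ 4 + 4 * s ^ 2 * (1 - s ^ 2) ^ 2 + 16 * s ^ 4 ≠ 0 := by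
    intro h
    rw [h] at hs
    simp at hs
  obtain ⟨x, hx⟩ : ∃ x : F, x = (1 - s ^ 2) / (2 * s) := ⟨_, rfl⟩
  obtain ⟨y, hy⟩ : ∃ y : F, y = (1 + s ^ 2) / (2 * s) := ⟨_, rfl⟩
  have hx0 : x ≠ 0 := by
    rw [hx]
    apply div_ne_zero _ (mul_ne_zero h2 hs0)
    intro h
    apply hs1
    linear_combination -h
  have hy0 : y ≠ 0 := by
    rw [hy]
    apply div_ne_zero _ (mul_ne_zero h2 hs0)
    intro h
    apply hs2
    linear_combination h
  have hxy : x ^ 2 + 1 = y ^ 2 := by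
    rw [hx, hy]
    field_simp
    ring
  have hx2 : x ^ 2 ≠ 0 := pow_ne_zero _ hx0
  refine pairing_eq_one_of_two_inv β h1 h2' (x ^ 2) (x ^ 2) (y ^ 2) hx2 (hinv x hx0) ?_ ?_ u v
  · rw [hxy]
    exact hinv y hy0
  · intro h
    apply hs3
    have e : (1 - s ^ 2) ^ 4 + 4 * s ^ 2 * (1 - s ^ 2) ^ 2 + 16 * s ^ 4 =
        16 * s ^ 4 * (x ^ 2 * ((x ^ 2)⁻¹ * y ^ 2 + y ^ 2 - 1)) := by
      have e1 : x ^ 2 * ((x ^ 2)⁻¹ * y ^ 2 + y ^ 2 - 1) = x ^ 4 + x ^ 2 + 1 := by
        rw [← hxy]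
        field_simp
        ring
      rw [e1, hx]
      field_simp
      ring
    rw [e, h, mul_zero, mul_zero]

end Cfsg.Agent.Lib.Helper17.ReeMult
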